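import Cfsg.Agent.H10R.A

/-! `2`-groups with a subgroup `V₄ ≀ Z₂` that is the centralizer of its centre. -/

set_option autoImplicit false
set_option linter.style.haveILetI false

namespace Cfsg.Agent.H10R

open Subgroup

variable {G : Type*} [Group G] [Finite G]

/-- `Q = E⟨s⟩` of order `32` is the centralizer of `V = C_E(s)` -/
structure WR (Q E V : Subgroup G) (s : G) : Prop where
  two : IsPGroup 2 G
  EQ : E ≤ Q
  E2 : ∀ e ∈ E, e * e = 1
  cE : Nat.card E = 16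
  cQ : Nat.card Q = 32
  sQ : s ∈ Q
  sE : s ∉ E
  s2 : s * s = 1
  hV : V = E ⊓ centralizer {s}
  cV : Nat.card V = 4
  hC : centralizer (V : Set G) = Q

theorem cenV {Q E : Subgroup G} {s : G} (EQ : E ≤ Q) (E2 : ∀ e ∈ E, e * e = 1) (cE : Nat.card E = 16)
    (cQ : Nat.card Q = 32) (sQ : s ∈ Q) (sE : s ∉ E) (cV : Nat.card (E ⊓ centralizer {s} : Subgroup G) = 4) (x : G) :
    x ∈ E ⊓ centralizer {s} ↔ x ∈ Q ∧ ∀ q ∈ Q, q * x = x * q := by
  have d : ∀ {a b}, a ∈ Q → b ∈ Q → a ∉ E → b ∉ E → a * b ∈ E := fun a b c d => di EQ (by omega) a b c d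
  constructor
  · rintro ⟨a, b⟩
    refine ⟨EQ a, fun q hq => ?_⟩
    by_cases e : q ∈ E
    · exact comm2 E2 e a
    · have h1 := comm2 E2 (d hq sQ e sE) a
      have h2 := mem_centralizer_singleton_iff.mp b
      rw [mul_assoc, ← h2, ← mul_assoc, ← mul_assoc] at h1
      exact mul_right_cancel h1
  · rintro ⟨a, b⟩
    refine ⟨by_contra fun e => ?_, mem_centralizer_singleton_iff.mpr (b s sQ).symm⟩
    have : E ≤ E ⊓ centralizer {s} := fun f hf => ⟨hf, mem_centralizer_singleton_iff.mpr (by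
      have h1 := comm2 E2 (d a sQ e sE) hf
      rw [← mul_assoc, b f (EQ hf), mul_assoc, mul_assoc] at h1
      exact (mul_left_cancel h1).symm)⟩
    have := card_le_of_le this
    omega

namespace WR

variable {Q E V : Subgroup G} {s : G} (h : WR Q E V s)
include h

theorem mem (x : G) : x ∈ V ↔ x ∈ Q ∧ ∀ q ∈ Q, q * x = x * q := h.hV ▸ cenV h.EQ h.E2 h.cE h.cQ h.sQ h.sE (h.hV ▸ h.cV) x

theorem d {a b : G} (ha : a ∈ Q) (hb : b ∈ Q) (a1 : a ∉ E) (b1 : b ∉ E) : a * b ∈ E :=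
  di h.EQ (by rw [h.cE, h.cQ]) ha hb a1 b1

theorem cj {e : G} (he : e ∈ E) : s * e * s⁻¹ ∈ E :=
  h.d (Q.mul_mem h.sQ (h.EQ he)) (Q.inv_mem h.sQ) (fun m => h.sE (by simpa using E.mul_mem m (E.inv_mem he)))
    (by simpa using h.sE)

omit [Finite G] in
theorem VE : V ≤ E := h.hV ▸ inf_le_left

theorem gen {w : G} (hw : w ∈ V) : ∃ e ∈ E, w = e * (s * e * s⁻¹) := by
  obtain ⟨K, k1, k2, k3⟩ := H11.exists_comm_sub h.E2 (mem_normalizer_fintype fun e he => h.cj he)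
    (fun e _ => by rw [h.s2, one_mul, mul_one])
  rw [← h.hV] at k1 k3
  rw [h.cV, h.cE] at k3
  exact k2 w ((eq_of_le_of_card_ge k1 (by rw [h.cV]; omega)).ge hw)

theorem sqV {X N : Subgroup G} (hX : ∀ q ∈ Q, q ∈ X) (hs : ∀ x ∈ X, x * x ∈ N) : V ≤ N := fun w hw => by
  obtain ⟨e, he, rfl⟩ := h.gen hw
  have := hs _ (hX _ (Q.mul_mem (h.EQ he) h.sQ))
  rw [inv_eq_of_mul_eq_one_left h.s2]
  simpa only [mul_assoc] using this

theorem l1 {D : Subgroup G} (hD : D ≤ Q) (hn : ∀ q ∈ Q, ∀ d ∈ D, q * d * q⁻¹ ∈ D) (hv : ¬ V ≤ D) : Nat.card D ≤ 4 := by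
  have DE : D ≤ E := fun t ht => by_contra fun e => hv fun w hw => by
    obtain ⟨f, hf, rfl⟩ := h.gen hw
    have a := D.mul_mem (hn f (h.EQ hf) t ht) (D.inv_mem ht)
    have b := comm2 h.E2 (h.d (hD ht) (Q.inv_mem h.sQ) e (by simpa using h.sE)) (h.cj hf)
    rw [inv_eq_of_mul_eq_one_left (h.E2 f hf)] at a
    have c : t * f * t⁻¹ = s * f * s⁻¹ := by
      calc t * f * t⁻¹ = t * s⁻¹ * (s * f * s⁻¹) * (t * s⁻¹)⁻¹ := by group
        _ = _ := by rw [b]; group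
    rw [← c]
    simpa only [mul_assoc] using a
  have h1 : Nat.card D ≤ _ := cle (T := D) (Z := V ⊓ D) (a := s) fun t ht => by
    have a : t * s * t⁻¹ * s⁻¹ ∈ D := by
      simpa only [mul_assoc] using D.mul_mem ht (hn s h.sQ _ (D.inv_mem ht))
    refine ⟨h.hV ▸ ⟨DE a, mem_centralizer_singleton_iff.mpr ?_⟩, a⟩
    have b := invt (c := t) (v := s) (fun g => by rw [h.s2, one_mul, mul_one])
    rw [inv_eq_of_mul_eq_one_left (h.E2 _ (DE a))] at b
    exact (mul_inv_eq_iff_eq_mul.mp b).symm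
  have h2 : Nat.card (centralizer ({s} : Set G) ⊓ D : Subgroup G) ≤ Nat.card (V ⊓ D : Subgroup G) :=
    card_le_of_le fun x hx => ⟨h.hV ▸ ⟨DE hx.2, hx.1⟩, hx.2⟩
  have h3 := half (inf_le_left : V ⊓ D ≤ V) fun e => hv (e.trans inf_le_right)
  rw [h.cV] at h3
  nlinarith

theorem exv : ∃ v ∈ V, centralizer {v} = Q := by
  haveI : Fact (Nat.Prime 2) := ⟨Nat.prime_two⟩
  obtain ⟨z, -, z2, z3, z4⟩ := H11.exists_central_mod_in (S := ⊤) (N := ⊥) (M := ⊤) (h.two.to_subgroup ⊤) le_top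
    (by rw [normalizer_eq_top]) (by rw [normalizer_eq_top]) fun e => h.sE (by rw [mem_bot.1 (e (mem_top s))]; simp)
  simp only [mem_bot, mul_inv_eq_iff_eq_mul, one_mul, mem_top, true_imp_iff] at z2 z3 z4
  have zV : z ∈ V := (h.mem z).2 ⟨h.hC ▸ fun w _ => z4 w, fun q _ => z4 q⟩
  have cz : Nat.card (zpowers z) = 2 := by rw [Nat.card_zpowers]; exact orderOf_eq_prime z3 z2
  have hz : ∀ g, ∀ w ∈ zpowers z, w * g = g * w := by
    rintro g _ ⟨i, rfl⟩
    exact (Commute.zpow_right (z4 g) i).eq.symm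
  obtain ⟨v, v1, v2⟩ := SetLike.not_le_iff_exists.1 fun e : V ≤ zpowers z => by
    have := card_le_of_le e
    rw [h.cV] at this; omega
  refine ⟨v, v1, le_antisymm (fun g hg => h.hC ▸ fun w hw => ?_) fun q hq =>
    mem_centralizer_singleton_iff.mpr (((h.mem v).1 v1).2 q hq)⟩
  by_cases e : w ∈ zpowers z
  · exact hz g w e
  · have a := hz g _ (di (zpowers_le.2 zV) (by rw [cz, h.cV]) hw v1 e v2)
    rw [mul_assoc, ← mem_centralizer_singleton_iff.mp hg, ← mul_assoc, ← mul_assoc] at a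
    exact mul_right_cancel a

theorem sr (hc : Nat.card G ≤ 128) : H11.SR 4 (⊤ : Subgroup G) := fun X _ N hN hs => by_contra fun hb => by
  have h1 := big h.two hN hb
  have hp : 0 < Nat.card N := Nat.card_pos
  have hX : Nat.card X ≤ Nat.card G := card_le_card_group X
  obtain ⟨v, v1, v2⟩ := h.exv
  by_cases QX : Q ≤ X
  · have a := h.sqV QX hs
    have b := card_le_of_le a
    rw [h.cV] at b
    obtain rfl : X = ⊤ := eq_top_of_card_eq _ (by omega)
    obtain rfl : V = N := eq_of_le_of_card_ge a (by rw [h.cV]; omega)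
    haveI : V.Normal := ⟨fun n hn g => H11.conj_mem_of_sq hN hs (mem_top g) hn⟩
    have c := MW.idx h.two V h.cV.le fun x hx => h.E2 x (h.VE hx)
    have e := Q.index_mul_card
    rw [h.hC] at c
    rw [h.cQ] at e
    rw [card_top] at h1
    omega
  have q16 := half (inf_le_left : Q ⊓ X ≤ Q) fun e => QX (e.trans inf_le_right)
  rw [h.cQ] at q16
  by_cases VX : V ≤ X
  · have a := cle (T := X) (Z := N) (a := v) fun t ht => H11.comm_mem_of_sq hs ht (VX v1)
    rw [v2] at a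
    nlinarith
  have x32 : Nat.card X ≤ 32 := by
    by_contra hn
    have := pw_ge (k := 5) (pw h.two X) (by omega)
    exact VX (h.sqV (X := ⊤) (fun _ _ => mem_top _) fun g _ => sq_of X (by omega) g)
  have n1 : N = ⊥ := card_eq_one.mp (by omega)
  have x2 : ∀ x ∈ X, x * x = 1 := fun x hx => mem_bot.mp (n1 ▸ hs x hx)
  have y8 := cm (le_top : X ≤ ⊤) (le_top : Q ≤ ⊤)
  rw [card_top, h.cQ] at y8
  let M := centralizer ((Q ⊓ X : Subgroup G) : Set G)
  have XM : X ≤ M := fun x hx y hy => comm2 x2 hy.2 hx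
  have VM : V ≤ M := fun w hw y hy => ((h.mem w).1 hw).2 y hy.1
  have m64 := half XM fun e => VX (VM.trans e)
  haveI : M.Normal := normal_of M (by omega)
  have nC : (centralizer (M : Set G)).Normal := inferInstance
  have a : V ≤ Q ⊓ centralizer (M : Set G) := by_contra fun hv => by
    have b := h.l1 inf_le_left (fun q hq d hd => ⟨Q.mul_mem (Q.mul_mem hq hd.1) (Q.inv_mem hq), nC.conj_mem _ hd.2 q⟩) hv
    have c : Q ⊓ X ≤ Q ⊓ centralizer (M : Set G) := fun y hy => ⟨hy.1, fun m hm => (hm y hy).symm⟩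
    have := card_le_of_le c
    nlinarith
  have b : M ≤ Q := fun m hm => h.hC ▸ fun w hw => ((a hw).2 m hm).symm
  have := card_le_of_le b
  rw [h.cQ] at this
  omega

theorem le128 {A : Subgroup G} (nA : A.Normal) (a2 : ∀ a ∈ A, a * a = 1) (a8 : Nat.card A = 8) : Nat.card G ≤ 128 := by
  obtain ⟨v, v1, v2⟩ := h.exv
  have vv := h.E2 v (h.VE v1)
  have mQ : ∀ g, g ∈ Q ↔ g * v = v * g := fun g => by rw [← v2, mem_centralizer_singleton_iff]
  by_cases qt : Q = ⊤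
  · have := h.cQ
    rw [qt, card_top] at this
    omega
  by_cases AQ : A ≤ Q
  · have vA : v ∈ A := (by_contra fun hv => by
      have := h.l1 AQ (fun q _ d hd => nA.conj_mem d hd q) hv
      omega : V ≤ A) v1
    have a := H11.card_isConj_mul v
    have b : Nat.card {y : G // IsConj v y} < 8 := by
      rw [← a8]
      refine Set.ncard_lt_ncard (s := {y | IsConj v y}) (t := A) ⟨fun y hy => ?_, fun e => ?_⟩
      · obtain ⟨g, rfl⟩ := isConj_iff.mp hy
        exact nA.conj_mem v vA g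
      · have : v = 1 := isConj_one_left.mp (e A.one_mem)
        have e2 : Q = ⊤ := eq_top_iff.mpr fun g _ => (mQ g).2 (by rw [this]; simp)
        exact qt e2
    rw [v2, h.cQ] at a
    have := pw h.two ⊤
    rw [card_top] at this
    by_contra hn
    have := pw_ge (k := 7) this (by omega)
    omega
  obtain ⟨a, aA, aQ⟩ := SetLike.not_le_iff_exists.1 AQ
  let C := centralizer (A : Set G)
  have nC : C.Normal := inferInstance
  have AC : A ≤ C := fun x hx y hy => comm2 a2 hy hx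
  have vC : v ∉ C := fun m => aQ ((mQ a).2 (m a aA))
  have iv := fun c => invt (c := c) (v := v) (fun g => by rw [vv, one_mul, mul_one])
  have fx : ∀ t, t * t = 1 → v * t * v⁻¹ = t⁻¹ → t ∈ Q := fun t h1 h2 => by
    rw [inv_eq_of_mul_eq_one_left h1] at h2
    exact (mQ t).2 (mul_inv_eq_iff_eq_mul.mp h2).symm
  have cU : ∀ x ∈ A, x * v * x⁻¹ * v⁻¹ ∈ Q ⊓ A := fun x hx => by
    have m : x * v * x⁻¹ * v⁻¹ ∈ A := by simpa only [mul_assoc] using A.mul_mem hx (nA.conj_mem _ (A.inv_mem hx) v)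
    exact ⟨fx _ (a2 _ m) (iv x), m⟩
  have d4 := h.l1 (D := Q ⊓ C) inf_le_left
    (fun q hq d hd => ⟨Q.mul_mem (Q.mul_mem hq hd.1) (Q.inv_mem hq), nC.conj_mem _ hd.2 q⟩) fun e => vC (e v1).2
  have u4 : 4 ≤ Nat.card (Q ⊓ A : Subgroup G) := by
    have := cle cU
    rw [v2] at this
    exact pw_ge (k := 1) (pw h.two _) (by nlinarith)
  have UD : Q ⊓ A = Q ⊓ C := eq_of_le_of_card_ge (inf_le_inf_left _ AC) (by omega)
  obtain ⟨w, hw⟩ : ∃ w, w = a * v * a⁻¹ * v⁻¹ := ⟨_, rfl⟩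
  have wU : w ∈ Q ⊓ A := hw ▸ cU a aA
  have w1 : w ≠ 1 := fun e => aQ ((mQ a).2 (by rw [hw, mul_inv_eq_one, mul_inv_eq_iff_eq_mul] at e; exact e))
  have wV : w ∈ V := (h.mem w).2 ⟨wU.1, fun q hq => by
    have m := di (inf_le_right : Q ⊓ A ≤ A) (by omega) (A.inv_mem aA) (nA.conj_mem a aA q)
      (fun e => aQ (by simpa using e.1)) fun e => aQ (by
        simpa [mul_assoc] using Q.mul_mem (Q.mul_mem (Q.inv_mem hq) e.1) hq)
    have e1 := (mQ _).1 m.1
    have e2 := (mQ _).1 hq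
    rw [← mul_inv_eq_iff_eq_mul, hw]
    calc q * (a * v * a⁻¹ * v⁻¹) * q⁻¹
        = a * (a⁻¹ * (q * a * q⁻¹) * (q * v * q⁻¹)) * (q * a * q⁻¹)⁻¹ * (q * v * q⁻¹)⁻¹ := by group
      _ = a * (a⁻¹ * (q * a * q⁻¹) * v) * (q * a * q⁻¹)⁻¹ * v⁻¹ := by rw [e2, mul_inv_cancel_right]
      _ = _ := by rw [e1]; group⟩
  have va := half (inf_le_left : V ⊓ A ≤ V) fun e => vC (AC (e v1).2)
  rw [h.cV] at va
  by_contra hn
  have g256 := pw_ge (k := 7) (pw h.two ⊤) (by rw [card_top]; omega)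
  rw [card_top] at g256
  have c32 : Nat.card G ≤ 8 * Nat.card C := idx8 h.two nA a2 a8
  obtain ⟨C1, n1, b1, b2, b3, b4⟩ := step h.two nA nC AC fun e => by have := card_le_of_le e; omega
  obtain ⟨C2, -, -, c2, c3, c4⟩ := step h.two n1 nC b2 fun e => by have := card_le_of_le e; omega
  have key : ∀ t ∈ C1, v * t * v⁻¹ = t⁻¹ → t ∈ Q ⊓ A := fun t ht e => by
    by_cases t2 : t * t = 1
    · exact UD ▸ ⟨fx t t2 e, b2 ht⟩
    have tA : t ∉ A := fun m => t2 (a2 t m)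
    have z := sqc a2 (b2 ht) fun g => b4 g t ht
    have tw : t * t = w := eq_of_two (N := V ⊓ A) (by omega)
      ⟨(h.mem _).2 ⟨(mQ _).2 (z v).symm, fun q _ => z q⟩, di b1 b3.le ht ht tA tA⟩ ⟨wV, wU.2⟩ t2 w1
    have e3 : v * (t * a⁻¹) * v⁻¹ = t * a⁻¹ := by
      calc v * (t * a⁻¹) * v⁻¹ = (v * t * v⁻¹) * (a⁻¹ * (a * v * a⁻¹ * v⁻¹)) := by group
        _ = t⁻¹ * (a⁻¹ * (t * t)) := by rw [e, ← hw, tw]
        _ = _ := by rw [z a⁻¹]; group
    have m : t * a⁻¹ ∈ Q ⊓ A := UD ▸ ⟨(mQ _).2 (mul_inv_eq_iff_eq_mul.mp e3).symm, C.mul_mem (b2 ht) (AC (A.inv_mem aA))⟩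
    exact absurd (by simpa using A.mul_mem m.2 aA) tA
  have f := cle (T := C2) (Z := Q ⊓ A) (a := v) fun c hc =>
    key _ (by simpa [mul_assoc] using C1.inv_mem (c4 v c hc)) (iv c)
  rw [v2, UD] at f
  have := card_le_of_le (inf_le_inf_left Q c2)
  nlinarith

end WR

end Cfsg.Agent.H10R
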