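import Cfsg.Agent.H10R.A

/-! `2`-groups with a self-centralizing extraspecial subgroup of order `32`. -/

set_option autoImplicit false
set_option linter.style.haveILetI false

namespace Cfsg.Agent.H10R

open Subgroup

variable {G : Type*} [Group G] [Finite G]

/-- `Q` is extraspecial of order `32` with centre `Z = C(Q)` -/
structure XS (Q Z : Subgroup G) : Prop where
  two : IsPGroup 2 G
  cQ : Nat.card Q = 32
  cZ : Nat.card Z = 2
  ZQ : Z ≤ Q
  zc : ∀ z ∈ Z, ∀ g, g * z = z * g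
  cm : ∀ a ∈ Q, ∀ b ∈ Q, a * b * a⁻¹ * b⁻¹ ∈ Z
  sq : ∀ a ∈ Q, a * a ∈ Z
  cen : ∀ g, (∀ q ∈ Q, g * q = q * g) → g ∈ Z
  inn : ∀ g, (∀ q ∈ Q, g * q * g⁻¹ * q⁻¹ ∈ Z) → g ∈ Q

omit [Finite G] in
theorem form {g q y ψ ψ' : G} (e1 : g * q * g⁻¹ = ψ * q) (e2 : g * y * g⁻¹ = ψ' * y) (c : ψ' * (ψ * q) = ψ * q * ψ')
    (z : ∀ x, x * (q * y * q⁻¹ * y⁻¹) = q * y * q⁻¹ * y⁻¹ * x) : ψ * y = y * ψ := by
  obtain ⟨ζ, hζ⟩ : ∃ ζ, ζ = q * y * q⁻¹ * y⁻¹ := ⟨_, rfl⟩
  rw [← hζ] at z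
  have a : ψ * q * (ψ' * y) * (ψ * q)⁻¹ * (ψ' * y)⁻¹ = ζ := by
    rw [← e1, ← e2]
    calc _ = g * ζ * g⁻¹ := by rw [hζ]; group
      _ = ζ := by rw [z]; group
  have b : ψ' * (ψ * (ζ * y) * ψ⁻¹ * y⁻¹) * ψ'⁻¹ = ζ := by
    calc _ = ψ' * (ψ * q) * y * (ψ * q)⁻¹ * (ψ' * y)⁻¹ := by rw [hζ]; group
      _ = ζ := by rw [c, ← a]; group
  have d : ψ * (ζ * y) * ψ⁻¹ * y⁻¹ = ζ := by
    calc _ = ψ'⁻¹ * (ψ' * (ψ * (ζ * y) * ψ⁻¹ * y⁻¹) * ψ'⁻¹) * ψ' := by group
      _ = ζ := by rw [b, z]; group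
  rw [← mul_assoc, z, mul_assoc, mul_assoc, mul_assoc, mul_eq_left, ← mul_assoc, ← mul_assoc, mul_inv_eq_one,
    mul_inv_eq_iff_eq_mul] at d
  exact d

namespace XS

variable {Q Z : Subgroup G} (h : XS Q Z)
include h

omit [Finite G] in
theorem nZ : Z.Normal := ⟨fun n hn g => by rw [h.zc n hn g]; simpa using hn⟩

theorem z2 {z : G} (hz : z ∈ Z) : z * z = 1 := by
  by_cases e : z = 1
  · simp [e]
  · exact di (K := ⊥) bot_le (by simp [h.cZ]) hz hz e e

theorem zle {N : Subgroup G} {z : G} (hz : z ∈ Z) (h1 : z ≠ 1) (hN : z ∈ N) : Z ≤ N := fun y hy => by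
  by_cases e : y = 1
  · exact e ▸ N.one_mem
  · exact eq_of_two h.cZ.le hy hz e h1 ▸ hN

/-- commutators modulo the centre need only be checked on an index two subgroup and one more element -/
theorem inn' {Y : Subgroup G} (hY : Y ≤ Q) (hc : 16 ≤ Nat.card Y) {q g : G} (hq : q ∈ Q) (hq' : q ∉ Y)
    (h1 : ∀ y ∈ Y, g * y * g⁻¹ * y⁻¹ ∈ Z) (h2 : g * q * g⁻¹ * q⁻¹ ∈ Z) : g ∈ Q := h.inn g fun r hr => by
  by_cases e : r ∈ Y
  · exact h1 r e
  · have m := di hY (by rw [h.cQ]; omega) hr (Q.inv_mem hq) e (by simpa using hq')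
    simpa [mul_assoc] using Z.mul_mem (h1 _ m) (h.nZ.conj_mem _ h2 (r * q⁻¹))

theorem zc4 {Y D : Subgroup G} (hY : Y ≤ Q) (hc : 16 ≤ Nat.card Y) (hD : D ≤ Q) (c : ∀ d ∈ D, ∀ y ∈ Y, d * y = y * d) :
    Nat.card D ≤ 4 := by
  by_cases e : Q ≤ Y
  · have := card_le_of_le fun d hd => h.cen d fun q hq => c d hd q (e hq)
    rw [h.cZ] at this; omega
  obtain ⟨q, q1, q2⟩ := SetLike.not_le_iff_exists.1 e
  have a := cle (T := D) (Z := Z) (a := q) fun t ht => h.cm t (hD ht) q q1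
  have b : centralizer {q} ⊓ D ≤ Z := fun d hd => h.cen d fun r hr => by
    by_cases e : r ∈ Y
    · exact c d hd.2 r e
    · have m := c d hd.2 _ (di hY (by rw [h.cQ]; omega) hr q1 e q2)
      rw [mul_assoc, ← mem_centralizer_singleton_iff.mp hd.1, ← mul_assoc, ← mul_assoc] at m
      exact mul_right_cancel m
  have := card_le_of_le b
  rw [h.cZ] at a this
  omega

section
variable {A : Subgroup G} (nA : A.Normal) (a2 : ∀ a ∈ A, a * a = 1) (a8 : Nat.card A = 8)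
include nA a2 a8

theorem AQ : A ≤ Q := by
  obtain ⟨Z0, -, -, z2, z3, z4⟩ := step h.two (K := ⊥) inferInstance nA bot_le fun e => by
    have := card_le_of_le e; rw [card_bot] at this; omega
  rw [card_bot] at z3
  obtain rfl : Z0 = Z := eq_of_le_of_card_ge (fun z hz => h.cen z fun q _ => by
    have := mem_bot.mp (z4 q z hz)
    rw [mul_inv_eq_one, mul_inv_eq_iff_eq_mul] at this
    exact this.symm) (by rw [h.cZ]; omega)
  obtain ⟨U, u1, u2, u3, u4, u5⟩ := step h.two h.nZ nA z2 fun e => by have := card_le_of_le e; omega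
  obtain ⟨A', -, -, b3, b4, b5⟩ := step h.two u1 nA u3 fun e => by have := card_le_of_le e; omega
  obtain rfl : A' = A := eq_of_le_of_card_ge b3 (by omega)
  have P : ∀ a ∈ A', ∀ q ∈ Q, q * a * q⁻¹ * a⁻¹ ∉ Z0 → ∀ u ∈ U, q * u = u * q := fun a ha q hq hn u hu => by
    obtain ⟨x, hx⟩ : ∃ x, x = q * a * q⁻¹ * a⁻¹ := ⟨_, rfl⟩
    have xU : x ∈ U := hx ▸ b5 q a ha
    have e := invt (c := a) (v := q) fun g => h.zc _ (h.sq q hq) g
    rw [show a * q * a⁻¹ * q⁻¹ = x⁻¹ by rw [hx]; group, inv_eq_of_mul_eq_one_left (a2 x (u3 xU)),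
      inv_eq_of_mul_eq_one_left (a2 x (u3 xU)), mul_inv_eq_iff_eq_mul] at e
    rw [← hx] at hn
    by_cases m : u ∈ Z0
    · exact h.zc u m q
    · have k := h.zc _ (di u2 u4.le hu xU m hn) q
      rw [mul_assoc, ← e, ← mul_assoc, ← mul_assoc] at k
      exact mul_right_cancel k
  obtain ⟨u, v1, v2⟩ := SetLike.not_le_iff_exists.1 fun e : U ≤ Z0 => by have := card_le_of_le e; omega
  obtain ⟨r, r1, r2⟩ : ∃ r ∈ Q, u * r ≠ r * u := by
    by_contra hn
    push Not at hn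
    exact v2 (h.cen u hn)
  refine fun a ha => h.inn a fun q hq => by_contra fun hn => ?_
  have k1 : q * a * q⁻¹ * a⁻¹ ∉ Z0 := fun m => hn (by simpa [mul_assoc] using Z0.inv_mem m)
  have k2 : r * a * r⁻¹ * a⁻¹ ∈ Z0 := by_contra fun m => r2 (P a ha r r1 m u v1).symm
  have k3 := P a ha _ (Q.mul_mem hq r1) (fun m => k1 (by
    simpa [mul_assoc] using Z0.mul_mem (Z0.inv_mem (h.nZ.conj_mem _ k2 q)) m)) u v1
  rw [← mul_assoc, ← P a ha q hq k1 u v1, mul_assoc, mul_assoc] at k3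
  exact r2 (mul_left_cancel k3).symm

theorem CQ {t : G} (h1 : t ∈ Q) (h2 : t ∈ centralizer (A : Set G)) : t ∈ A := by_contra fun hn => by
  have a := H11.two_mul_card_le_of_lt (M := Q ⊓ centralizer (A : Set G))
    (fun x hx => ⟨h.AQ nA a2 a8 hx, fun y hy => comm2 a2 hy hx⟩) ⟨h1, h2⟩ hn
  have := h.zc4 (Y := Q ⊓ centralizer (A : Set G)) inf_le_left (by omega) (h.AQ nA a2 a8) fun d hd y hy => hy.2 d hd
  omega

theorem phi {t q : G} (ht : t ∈ centralizer (A : Set G)) (h1 : ∀ r ∈ Q, t * r * t⁻¹ * r⁻¹ ∈ A) (hq : q ∈ Q) (qA : q ∉ A)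
    (h2 : t * q * t⁻¹ * q⁻¹ ∈ Z) : t ∈ A := by
  have AQ := h.AQ nA a2 a8
  have c1 : ∀ r ∈ Q, t * r * t⁻¹ * r⁻¹ * r = r * (t * r * t⁻¹ * r⁻¹) := fun r hr => by
    have e := invt (c := t) (v := r) fun g => h.zc _ (h.sq r hr) g
    rw [inv_eq_of_mul_eq_one_left (a2 _ (h1 r hr)), mul_inv_eq_iff_eq_mul] at e
    exact e.symm
  refine h.CQ nA a2 a8 (h.inn t fun r hr => ?_) ht
  by_cases rA : r ∈ A
  · rw [← ht r rA]; simp
  by_cases rq : q⁻¹ * r ∈ A
  · have := ht _ rq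
    have e : t * r * t⁻¹ * r⁻¹ = t * q * t⁻¹ * q⁻¹ := by
      calc _ = t * q * (q⁻¹ * r * t⁻¹) * r⁻¹ := by group
        _ = t * q * (t⁻¹ * (t * (q⁻¹ * r)) * t⁻¹) * r⁻¹ := by group
        _ = _ := by rw [← this, show t⁻¹ * (q⁻¹ * r * t) * t⁻¹ = t⁻¹ * (q⁻¹ * r) by group]; group
    exact e ▸ h2
  obtain ⟨ψ, hψ⟩ : ∃ ψ, ψ = t * r * t⁻¹ * r⁻¹ := ⟨_, rfl⟩
  have ψA : ψ ∈ A := hψ ▸ h1 r hr
  have c2 := c1 r hr
  have c3 := c1 _ (Q.mul_mem hq hr)
  have m := Z.mul_mem h2 (h.cm q hq ψ (AQ ψA))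
  obtain ⟨ζ, hζ⟩ : ∃ ζ, ζ = t * q * t⁻¹ * q⁻¹ * (q * ψ * q⁻¹ * ψ⁻¹) := ⟨_, rfl⟩
  rw [← hζ] at m
  rw [show t * (q * r) * t⁻¹ * (q * r)⁻¹ = ζ * ψ by rw [hζ, hψ]; group, ← mul_assoc (q * r), h.zc ζ m, mul_assoc ζ,
    mul_assoc ζ, mul_right_inj, mul_assoc q] at c3
  rw [← hψ] at c2 ⊢
  rw [← c2, ← mul_assoc, ← mul_assoc, mul_left_inj] at c3
  have T : Q ≤ centralizer {ψ} := by_contra fun hn => by
    have a := half (inf_le_left : Q ⊓ centralizer {ψ} ≤ Q) fun e => hn (e.trans inf_le_right)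
    rw [h.cQ] at a
    exact rq (di (M := Q ⊓ centralizer {ψ}) (fun x hx => ⟨AQ hx, mem_centralizer_singleton_iff.mpr (comm2 a2 hx ψA)⟩)
      (by omega) (Subgroup.inv_mem _ ⟨hq, mem_centralizer_singleton_iff.mpr c3.symm⟩)
      ⟨hr, mem_centralizer_singleton_iff.mpr c2.symm⟩ (by simpa using qA) rA)
  exact h.cen ψ fun x hx => (mem_centralizer_singleton_iff.mp (T hx)).symm

theorem c16 : Nat.card (centralizer (A : Set G)) ≤ 16 := by_contra fun hn => by
  have AQ := h.AQ nA a2 a8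
  have c32 := pw_ge (k := 4) (pw h.two (centralizer (A : Set G))) (by omega)
  have nC : (centralizer (A : Set G)).Normal := inferInstance
  have AC : A ≤ centralizer (A : Set G) := fun x hx y hy => comm2 a2 hy hx
  obtain ⟨C1, n1, b1, b2, b3, b4⟩ := step h.two nA nC AC fun e => by have := card_le_of_le e; omega
  obtain ⟨C2, -, -, c2, c3, c4⟩ := step h.two n1 nC b2 fun e => by have := card_le_of_le e; omega
  have al0 : ∀ d ∈ C2, ∀ q ∈ Q, q ∉ A → q * q = 1 → d * q * d⁻¹ * q⁻¹ ∈ A := fun d hd q hq qA qq => by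
    obtain ⟨t, ht⟩ : ∃ t, t = d * q * d⁻¹ * q⁻¹ := ⟨_, rfl⟩
    have t1 : t ∈ C1 := by simpa [ht, mul_assoc] using C1.inv_mem (c4 q d hd)
    have e := invt (c := d) (v := q) fun g => by rw [qq, one_mul, mul_one]
    rw [← ht] at e ⊢
    refine h.phi nA a2 a8 (b2 t1) (fun r _ => by simpa [mul_assoc] using A.inv_mem (b4 r t t1)) hq qA ?_
    rw [show t * q * t⁻¹ * q⁻¹ = t * (q * t * q⁻¹)⁻¹ by group, e, inv_inv]
    exact h.cen _ fun r _ => (sqc a2 (b2 t1) (fun g => b4 g t t1) r).symm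
  have nc : ∀ q ∈ Q, q ∉ A → ∃ a ∈ A, a * q ≠ q * a := fun q hq qA => by
    by_contra hn
    push Not at hn
    exact qA (h.CQ nA a2 a8 hq hn)
  have al : ∀ d ∈ C2, ∀ q ∈ Q, d * q * d⁻¹ * q⁻¹ ∈ A := fun d hd q hq => by
    by_cases qA : q ∈ A
    · rw [← c2 hd q qA]; simp
    by_cases qq : q * q = 1
    · exact al0 d hd q hq qA qq
    obtain ⟨a, ha, e⟩ := nc q hq qA
    have k := eq_of_two h.cZ.le (h.cm a (AQ ha) q hq) (h.sq q hq)
      (fun m => e (by rwa [mul_inv_eq_one, mul_inv_eq_iff_eq_mul] at m)) qq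
    have := al0 d hd _ (Q.mul_mem (AQ ha) hq) (fun m => qA (by simpa using A.mul_mem (A.inv_mem ha) m)) (by
      rw [← h.z2 (h.sq q hq)]
      nth_rw 1 [← k]
      rw [inv_eq_of_mul_eq_one_left (a2 a ha)]
      group)
    have e2 := c2 hd a ha
    have e3 : d * q * d⁻¹ * q⁻¹ = a⁻¹ * (d * (a * q) * d⁻¹ * (a * q)⁻¹) * a := by
      rw [← mul_assoc d, ← e2]; group
    rw [e3]
    exact A.mul_mem (A.mul_mem (A.inv_mem ha) this) ha
  obtain ⟨q, q1, q2⟩ := SetLike.not_le_iff_exists.1 fun e : Q ≤ A => by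
    have := card_le_of_le e; rw [h.cQ] at this; omega
  have f := cle (T := C2) (Z := centralizer {q} ⊓ A) (a := q) fun d hd => ⟨by
    have e := invt (c := d) (v := q) fun g => h.zc _ (h.sq q q1) g
    rw [inv_eq_of_mul_eq_one_left (a2 _ (al d hd q q1)), mul_inv_eq_iff_eq_mul] at e
    exact mem_centralizer_singleton_iff.mpr e.symm, al d hd q q1⟩
  have f2 : centralizer {q} ⊓ C2 ≤ centralizer {q} ⊓ A := fun d hd => ⟨hd.1,
    h.phi nA a2 a8 (c2 hd.2) (al d hd.2) q1 q2 (by rw [mem_centralizer_singleton_iff.mp hd.1]; simp)⟩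
  have f3 := half (inf_le_right : centralizer {q} ⊓ A ≤ A) fun e => by
    obtain ⟨a, ha, e'⟩ := nc q q1 q2
    exact e' (mem_centralizer_singleton_iff.mp (e ha).1)
  have := card_le_of_le f2
  nlinarith

theorem le128 : Nat.card G ≤ 128 := by
  have := idx8 h.two nA a2 a8
  have := h.c16 nA a2 a8
  omega

end

theorem sr (hc : Nat.card G ≤ 128) : H11.SR 4 (⊤ : Subgroup G) := fun X _ N hN hs => by_contra fun hb => by
  have h1 := big h.two hN hb
  have hp : 0 < Nat.card N := Nat.card_pos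
  have hX : Nat.card X ≤ Nat.card G := card_le_card_group X
  have y8 := H10R.cm (le_top : X ≤ ⊤) (le_top : Q ≤ ⊤)
  rw [card_top, h.cQ] at y8
  by_cases y16 : 16 ≤ Nat.card (Q ⊓ X : Subgroup G)
  · have ZN : Z ≤ N := by_contra fun hn => by
      have := h.zc4 inf_le_left y16 (inf_le_left : Q ⊓ X ≤ Q) fun d hd y hy => by_contra fun e =>
        hn (h.zle (h.cm d hd.1 y hy.1) (fun m => e (by rwa [mul_inv_eq_one, mul_inv_eq_iff_eq_mul] at m))
          (H11.comm_mem_of_sq hs hd.2 hy.2))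
      omega
    by_cases NZ : N ≤ Z
    · have n2 := card_le_of_le ZN
      rw [h.cZ] at n2
      have nX := normal_of X (by omega)
      have cZ : ∀ x ∈ X, ∀ y ∈ X, x * y * x⁻¹ * y⁻¹ ∈ Z := fun x hx y hy => NZ (H11.comm_mem_of_sq hs hx hy)
      obtain ⟨q, q1, q2⟩ := SetLike.not_le_iff_exists.1 fun e : Q ≤ X => by
        have := card_le_of_le fun x hx => h.inn x fun q hq => cZ x hx q (e hq)
        rw [h.cQ] at this; omega
      have q3 : q ∉ Q ⊓ X := fun m => q2 m.2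
      have q16 := half (inf_le_left : Q ⊓ X ≤ Q) fun e => q3 (e q1)
      rw [h.cQ] at q16
      have f := cle (T := X) (Z := Q ⊓ centralizer ((Q ⊓ X : Subgroup G) : Set G)) (a := q) fun x hx => by
        obtain ⟨ψ, hψ⟩ : ∃ ψ, ψ = x * q * x⁻¹ * q⁻¹ := ⟨_, rfl⟩
        have ψX : ψ ∈ X := by simpa [hψ, mul_assoc] using X.mul_mem hx (nX.conj_mem _ (X.inv_mem hx) q)
        have e := invt (c := x) (v := q) fun g => h.zc _ (h.sq q q1) g
        rw [← hψ] at e ⊢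
        refine ⟨h.inn' inf_le_left y16 q1 q3 (fun y hy => cZ ψ ψX y hy.2) ?_, fun y hy => ?_⟩
        · rw [show ψ * q * ψ⁻¹ * q⁻¹ = ψ * (q * ψ * q⁻¹)⁻¹ by group, e, inv_inv]
          exact NZ (hs ψ ψX)
        · exact (form (g := x) (ψ' := x * y * x⁻¹ * y⁻¹) (by rw [hψ]; group) (by group)
            (h.zc _ (cZ x hx y hy.2) _).symm (h.zc _ (h.cm q q1 y hy.1))).symm
      have f1 := h.zc4 inf_le_left y16 (inf_le_left : Q ⊓ centralizer ((Q ⊓ X : Subgroup G) : Set G) ≤ Q)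
        fun d hd y hy => (hd.2 y hy).symm
      have f2 : centralizer {q} ⊓ X ≤ Q ⊓ X := fun x hx => ⟨h.inn' inf_le_left y16 q1 q3 (fun y hy => cZ x hx.2 y hy.2)
        (by rw [mem_centralizer_singleton_iff.mp hx.1]; simp), hx.2⟩
      have f3 := half f2 fun e => q2 (hN (ZN (h.cen q fun r hr => by
        by_cases m : r ∈ Q ⊓ X
        · exact (mem_centralizer_singleton_iff.mp (e m).1).symm
        · have k := mem_centralizer_singleton_iff.mp (e (di inf_le_left (by rw [h.cQ]; omega) hr q1 m q3)).1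
          rw [← mul_assoc] at k
          exact (mul_right_cancel k).symm)))
      nlinarith
    · have n4 := half ZN NZ
      rw [h.cZ] at n4
      obtain rfl : X = ⊤ := eq_top_of_card_eq _ (by omega)
      have cN : ∀ x y, x * y * x⁻¹ * y⁻¹ ∈ N := fun x y => H11.comm_mem_of_sq hs (mem_top x) (mem_top y)
      have dN : ∀ {a b}, a ∈ N → b ∈ N → a ∉ Z → b ∉ Z → a * b ∈ Z := fun a b c d => di ZN (by rw [h.cZ]; omega) a b c d
      have nz : ∀ n ∈ N, ∀ g, n * g * n⁻¹ * g⁻¹ ∈ Z := fun n hn g => by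
        by_cases m : n ∈ Z
        · rw [← h.zc n m]; simp
        · simpa only [mul_assoc] using dN hn (H11.conj_mem_of_sq hN hs (mem_top g) (N.inv_mem hn)) m fun k => m (by
            simpa [mul_assoc] using Z.inv_mem (h.nZ.conj_mem _ k g⁻¹))
      obtain ⟨w, w1, w2⟩ := SetLike.not_le_iff_exists.1 NZ
      have cw : ∀ g, g * w = w * g → ∀ n ∈ N, g * n = n * g := fun g e n hn => by
        by_cases m : n ∈ Z
        · exact h.zc n m g
        · have k := h.zc _ (dN hn w1 m w2) g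
          rw [mul_assoc, ← e, ← mul_assoc, ← mul_assoc] at k
          exact mul_right_cancel k
      have nab : ∀ a ∈ N, ∀ b ∈ N, a * b = b * a := fun a ha => cw a (cw w rfl a ha).symm
      obtain ⟨q, q1, q2⟩ : ∃ r ∈ Q, w * r ≠ r * w := by
        by_contra hn
        push Not at hn
        exact w2 (h.cen w hn)
      have f0 := cle (T := Q) (Z := Z) (a := w) fun t _ => by simpa [mul_assoc] using Z.inv_mem (nz w w1 t)
      rw [h.cQ, h.cZ] at f0
      have f := cle (T := ⊤) (a := q) fun x _ => cN x q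
      have f2 : centralizer {q} ⊓ ⊤ ≤ Q := fun x hx => h.inn' (Y := centralizer {w} ⊓ Q) inf_le_right (by omega) q1
        (fun m => q2 (mem_centralizer_singleton_iff.mp m.1).symm) (fun y hy => h.cen _ fun r hr =>
          form (g := x) (q := y) (ψ' := x * r * x⁻¹ * r⁻¹) (by group) (by group) (by
            rw [← mul_assoc, nab _ (cN x r) _ (cN x y), mul_assoc,
              ← cw y (mem_centralizer_singleton_iff.mp hy.1) _ (cN x r), ← mul_assoc]) (h.zc _ (h.cm y hy.2 r hr)))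
        (by rw [mem_centralizer_singleton_iff.mp hx.1]; simp)
      have f3 := half f2 fun e =>
        q2 (mem_centralizer_singleton_iff.mp (e (h.inn w fun r _ => nz w w1 r)).1)
      rw [h.cQ] at f3
      nlinarith
  · have y8' : Nat.card (Q ⊓ X : Subgroup G) ≤ 8 := by
      by_contra hn
      exact y16 (pw_ge (k := 3) (pw h.two _) (by omega))
    have n1 : N = ⊥ := card_eq_one.mp (by nlinarith)
    have x2 : ∀ x ∈ X, x * x = 1 := fun x hx => mem_bot.mp (n1 ▸ hs x hx)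
    have y8e : Nat.card (Q ⊓ X : Subgroup G) = 8 := by nlinarith
    have ZY : Z ≤ Q ⊓ X := by_contra fun hn => by
      have a := half (K := Q ⊓ X) (M := Q ⊓ centralizer ((Q ⊓ X : Subgroup G) : Set G))
        (fun x hx => ⟨hx.1, fun y hy => comm2 x2 hy.2 hx.2⟩) fun e =>
          hn fun z hz => e ⟨h.ZQ hz, fun y _ => h.zc z hz y⟩
      have := h.zc4 (Y := Q ⊓ centralizer ((Q ⊓ X : Subgroup G) : Set G)) inf_le_left (by omega)
        (inf_le_left : Q ⊓ X ≤ Q) fun d hd y hy => hy.2 d hd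
      omega
    have a := H10R.cm (H := normalizer ((Q ⊓ X : Subgroup G) : Set G)) (X := X) (Q := Q)
      (fun x hx => mem_normalizer_fintype fun y hy => by rw [comm2 x2 hx hy.2]; simpa using hy)
      (fun q hq => mem_normalizer_fintype fun y hy => by
        simpa using (Q ⊓ X).mul_mem (ZY (h.cm q hq y hy.1)) hy)
    rw [h.cQ, y8e] at a
    have b := card_le_card_group (normalizer ((Q ⊓ X : Subgroup G) : Set G))
    have nY := normalizer_eq_top_iff.mp (eq_top_of_card_eq (normalizer ((Q ⊓ X : Subgroup G) : Set G)) (by omega))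
    have c := h.c16 nY (fun y hy => x2 y hy.2) y8e
    have := card_le_of_le (show X ≤ centralizer ((Q ⊓ X : Subgroup G) : Set G) from
      fun x hx y hy => comm2 x2 hy.2 hx)
    omega

end XS

end Cfsg.Agent.H10R
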