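import Cfsg.Agent.H10R.B
import Cfsg.Agent.H10R.C

/-! The hypotheses in coordinates. -/

set_option autoImplicit false
set_option linter.style.haveILetI false

namespace Cfsg.Agent.H10R

open Subgroup

variable {G : Type*} [Group G] [Finite G]

omit [Finite G] in
theorem q8 {P : Subgroup G} (e : P ≃* QuaternionGroup 2) : Nat.card P = 8 ∧ ∃ z ∈ P, ∃ i ∈ P, ∃ j ∈ P, z ≠ 1 ∧ z * z = 1 ∧
    (∀ a ∈ P, ∀ b ∈ P, a * b * a⁻¹ * b⁻¹ = 1 ∨ a * b * a⁻¹ * b⁻¹ = z) ∧ (∀ a ∈ P, a * a = 1 ∨ a * a = z) ∧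
    (∀ a ∈ P, a * i = i * a → a * j = j * a → a = 1 ∨ a = z) ∧
    ∀ g, g * i = i * g → g * j = j * g → ∀ a ∈ P, g * a = a * g := by
  let f : QuaternionGroup 2 →* G := P.subtype.comp e.symm.toMonoidHom
  have fi : Function.Injective f := P.subtype_injective.comp e.symm.injective
  have fm : ∀ x, f x ∈ P := fun x => (e.symm x).2
  have fs : ∀ a ∈ P, ∃ x, f x = a := fun a ha => ⟨e ⟨a, ha⟩, by simp [f]⟩
  refine ⟨by rw [Nat.card_congr e.toEquiv, Nat.card_eq_fintype_card, QuaternionGroup.card], f (.a 2), fm _, f (.a 1), fm _,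
    f (.xa 0), fm _, fun h => absurd (fi (h.trans f.map_one.symm)) (by decide), by rw [← map_mul, ← f.map_one]; rfl,
    fun a ha b hb => ?_, fun a ha => ?_, fun a ha h1 h2 => ?_, fun g h1 h2 a ha => ?_⟩
  · obtain ⟨x, rfl⟩ := fs a ha
    obtain ⟨y, rfl⟩ := fs b hb
    rw [← map_inv, ← map_inv, ← map_mul, ← map_mul, ← map_mul, ← f.map_one, fi.eq_iff, fi.eq_iff]
    clear ha hb; revert x y; decide
  · obtain ⟨x, rfl⟩ := fs a ha
    rw [← map_mul, ← f.map_one, fi.eq_iff, fi.eq_iff]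
    clear ha; revert x; decide
  · obtain ⟨x, rfl⟩ := fs a ha
    rw [← map_mul, ← map_mul, fi.eq_iff] at h1 h2
    rw [← f.map_one, fi.eq_iff, fi.eq_iff]
    clear ha; revert x; decide
  · obtain ⟨x, rfl⟩ := fs a ha
    obtain ⟨m, n, rfl⟩ : ∃ (m : Fin 4) (n : Fin 2), x = QuaternionGroup.a 1 ^ m.val * QuaternionGroup.xa 0 ^ n.val := by
      clear ha; revert x; decide
    rw [map_mul, map_pow, map_pow]
    exact (((show Commute g _ from h1).pow_right _).mul_right ((show Commute g _ from h2).pow_right _)).eq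

theorem xs (hS : IsPGroup 2 G) (Q Q₁ Q₂ : Subgroup G) (e₁ : Q₁ ≃* QuaternionGroup 2) (e₂ : Q₂ ≃* QuaternionGroup 2)
    (hc : ∀ a ∈ Q₁, ∀ b ∈ Q₂, a * b = b * a) (hQ : Q₁ ⊔ Q₂ = Q) (h32 : Nat.card Q = 32)
    (hC : centralizer (Q : Set G) ≤ Q) : ∃ Z, XS Q Z := by
  haveI : Fact (Nat.Prime 2) := ⟨Nat.prime_two⟩
  obtain ⟨c1, z, zP, i, iP, j, jP, z1, z2, a1, a2, a3, a4⟩ := q8 e₁
  obtain ⟨c2, z', -, i', iP', j', jP', -, -, b1, b2, b3, b4⟩ := q8 e₂
  have l1 : Q₁ ≤ Q := hQ ▸ le_sup_left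
  have l2 : Q₂ ≤ Q := hQ ▸ le_sup_right
  obtain rfl : z = z' := by
    obtain ⟨x, x1, x2⟩ := SetLike.not_le_iff_exists.1 fun e : Q₁ ⊓ Q₂ ≤ ⊥ => by
      have := H11.card_mul_le_of_disjoint l1 l2 (le_bot_iff.mp e)
      rw [c1, c2] at this
      omega
    exact ((a3 x x1.1 (hc i iP x x1.2).symm (hc j jP x x1.2).symm).resolve_left x2).symm.trans
      ((b3 x x1.2 (hc x x1.1 i' iP') (hc x x1.1 j' jP')).resolve_left x2)
  have dec : ∀ q ∈ Q, ∃ a ∈ Q₁, ∃ b ∈ Q₂, q = a * b := fun q hq => by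
    rw [← hQ, sup_eq_closure] at hq
    induction hq using closure_induction with
    | mem x hx => rcases hx with hx | hx; exacts [⟨x, hx, 1, Q₂.one_mem, by simp⟩, ⟨1, Q₁.one_mem, x, hx, by simp⟩]
    | one => exact ⟨1, Q₁.one_mem, 1, Q₂.one_mem, by simp⟩
    | mul x y _ _ hx hy =>
      obtain ⟨a, ha, b, hb, rfl⟩ := hx
      obtain ⟨c, hc', d, hd, rfl⟩ := hy
      exact ⟨_, Q₁.mul_mem ha hc', _, Q₂.mul_mem hb hd, by rw [mul_assoc, ← mul_assoc b, ← hc c hc' b hb]; group⟩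
    | inv x _ hx =>
      obtain ⟨a, ha, b, hb, rfl⟩ := hx
      exact ⟨_, Q₁.inv_mem ha, _, Q₂.inv_mem hb, by rw [hc a ha b hb, mul_inv_rev]⟩
  have mz : ∀ {x}, x = 1 ∨ x = z → x ∈ zpowers z := by
    rintro _ (rfl | rfl)
    exacts [one_mem _, mem_zpowers _]
  have cz : Nat.card (zpowers z) = 2 := by rw [Nat.card_zpowers]; exact orderOf_eq_prime (by rw [pow_two, z2]) z1
  have c4 : ∀ g ∈ Q, g * i = i * g → g * j = j * g → g * i' = i' * g → g * j' = j' * g → g ∈ zpowers z :=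
    fun g hg h1 h2 h3 h4 => by
      obtain ⟨a, ha, b, hb, rfl⟩ := dec g hg
      have k : ∀ x ∈ Q₁, a * b * x = x * (a * b) → a * x = x * a := fun x hx e => by
        rw [mul_assoc, ← hc x hx b hb, ← mul_assoc, ← mul_assoc] at e
        exact mul_right_cancel e
      have k' : ∀ x ∈ Q₂, a * b * x = x * (a * b) → b * x = x * b := fun x hx e => by
        rw [← mul_assoc, ← hc a ha x hx, mul_assoc, mul_assoc] at e
        exact mul_left_cancel e
      exact mul_mem (mz (a3 a ha (k i iP h1) (k j jP h2))) (mz (b3 b hb (k' i' iP' h3) (k' j' jP' h4)))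
  have cen : ∀ g, (∀ q ∈ Q, g * q = q * g) → g ∈ zpowers z := fun g hg =>
    c4 g (hC fun q hq => (hg q hq).symm) (hg i (l1 iP)) (hg j (l1 jP)) (hg i' (l2 iP')) (hg j' (l2 jP'))
  have zc : ∀ y ∈ zpowers z, ∀ g, g * y = y * g := by
    obtain ⟨y, -, y2, -, y4⟩ := H11.exists_central_mod_in (S := ⊤) (N := ⊥) (M := ⊤) (hS.to_subgroup ⊤) le_top
      (by rw [normalizer_eq_top]) (by rw [normalizer_eq_top]) fun e => z1 (mem_bot.1 (e (mem_top z)))
    simp only [mem_bot, mul_inv_eq_iff_eq_mul, one_mul, mem_top, true_imp_iff] at y2 y4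
    obtain rfl := eq_of_two cz.le (cen y fun q _ => (y4 q).symm) (mem_zpowers z) y2 z1
    rintro _ ⟨n, rfl⟩ g
    exact (Commute.zpow_right (y4 g) n).eq
  have nZ : (zpowers z).Normal := ⟨fun n hn g => by rw [zc n hn g]; simpa using hn⟩
  have cm : ∀ a ∈ Q, ∀ b ∈ Q, a * b * a⁻¹ * b⁻¹ ∈ zpowers z := fun x hx y hy => by
    obtain ⟨a, ha, b, hb, rfl⟩ := dec x hx
    obtain ⟨c, hc', d, hd, rfl⟩ := dec y hy
    have e : a * b * (c * d) * (a * b)⁻¹ * (c * d)⁻¹ = a * c * (b * d * b⁻¹ * d⁻¹) * (a * c)⁻¹ * (a * c * a⁻¹ * c⁻¹) := by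
      calc _ = a * (b * c) * d * b⁻¹ * (d * a)⁻¹ * c⁻¹ := by group
        _ = _ := by rw [← hc c hc' b hb, ← hc a ha d hd]; group
    rw [e]
    exact mul_mem (nZ.conj_mem _ (mz (b1 b hb d hd)) _) (mz (a1 a ha c hc'))
  refine ⟨zpowers z, hS, h32, cz, zpowers_le.2 (l1 zP), zc, cm, fun x hx => ?_, cen, fun g hg => ?_⟩
  · obtain ⟨a, ha, b, hb, rfl⟩ := dec x hx
    rw [mul_assoc, ← mul_assoc b, ← hc a ha b hb, mul_assoc, ← mul_assoc]
    exact mul_mem (mz (a2 a ha)) (mz (b2 b hb))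
  · let H : Subgroup G :=
      { carrier := {g | ∀ q ∈ Q, g * q * g⁻¹ * q⁻¹ ∈ zpowers z}
        one_mem' := fun q _ => by simp
        mul_mem' := fun {a b} ha hb q hq => by
          simpa [mul_assoc] using mul_mem (nZ.conj_mem _ (hb q hq) a) (ha q hq)
        inv_mem' := fun {a} ha q hq => by
          simpa [mul_assoc] using nZ.conj_mem _ (inv_mem (ha q hq)) a⁻¹ }
    have QH : Q ≤ H := cm
    have f1 := cle (T := H) (a := i) fun t ht => ht i (l1 iP)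
    have f2 := cle (T := centralizer {i} ⊓ H) (a := j) fun t ht => ht.2 j (l1 jP)
    have f3 := cle (T := centralizer {j} ⊓ (centralizer {i} ⊓ H)) (a := i') fun t ht => ht.2.2 i' (l2 iP')
    have f4 := cle (T := centralizer {i'} ⊓ (centralizer {j} ⊓ (centralizer {i} ⊓ H))) (a := j')
      fun t ht => ht.2.2.2 j' (l2 jP')
    have f5 := card_le_of_le (show centralizer {j'} ⊓ (centralizer {i'} ⊓ (centralizer {j} ⊓ (centralizer {i} ⊓ H))) ≤
      zpowers z from fun t ht => cen t fun q hq => by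
        obtain ⟨a, ha, b, hb, rfl⟩ := dec q hq
        rw [← mul_assoc, a4 t (mem_centralizer_singleton_iff.mp ht.2.2.2.1) (mem_centralizer_singleton_iff.mp ht.2.2.1)
          a ha, mul_assoc, b4 t (mem_centralizer_singleton_iff.mp ht.2.1) (mem_centralizer_singleton_iff.mp ht.1) b hb,
          mul_assoc])
    rw [cz] at f1 f2 f3 f4 f5
    exact (eq_of_le_of_card_ge QH (by omega)).ge hg

theorem s1233 (hS : IsPGroup 2 G)
    (mw : (∀ A : Subgroup G, A.Normal → IsMulCommutative A → (∀ a ∈ A, a ^ 2 = 1) → Nat.card A ≤ 4) →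
      SectionalPRankLE 2 4 G) (Q Q₁ Q₂ : Subgroup G) (e₁ : Q₁ ≃* QuaternionGroup 2) (e₂ : Q₂ ≃* QuaternionGroup 2)
    (hc : ∀ a ∈ Q₁, ∀ b ∈ Q₂, a * b = b * a) (hQ : Q₁ ⊔ Q₂ = Q) (h32 : Nat.card Q = 32)
    (hC : centralizer (Q : Set G) ≤ Q) : SectionalPRankLE 2 4 G := by
  obtain ⟨Z, h⟩ := xs hS Q Q₁ Q₂ e₁ e₂ hc hQ h32 hC
  exact red hS mw fun A nA a2 a8 => h.sr (h.le128 nA a2 a8)

theorem s1234 (hS : IsPGroup 2 G)
    (mw : (∀ A : Subgroup G, A.Normal → IsMulCommutative A → (∀ a ∈ A, a ^ 2 = 1) → Nat.card A ≤ 4) →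
      SectionalPRankLE 2 4 G) (Q E : Subgroup G) (hEQ : E ≤ Q) (hE : IsElementaryAbelian 2 E) (hE16 : Nat.card E = 16)
    (hQ32 : Nat.card Q = 32) (s : G) (hsQ : s ∈ Q) (hsE : s ∉ E) (hs : orderOf s = 2)
    (hfix : Nat.card ↥(E ⊓ centralizer ({s} : Set G)) = 4)
    (hC : centralizer (((center Q).map Q.subtype : Subgroup G) : Set G) = Q) : SectionalPRankLE 2 4 G := by
  have E2 : ∀ e ∈ E, e * e = 1 := fun e he => (pow_two e).symm.trans (hE.2 e he)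
  have e : (center Q).map Q.subtype = E ⊓ centralizer {s} := by
    ext x
    rw [cenV hEQ E2 hE16 hQ32 hsQ hsE hfix]
    constructor
    · rintro ⟨y, hy, rfl⟩
      exact ⟨y.2, fun q hq => congrArg Subtype.val (mem_center_iff.mp hy ⟨q, hq⟩)⟩
    · rintro ⟨a, b⟩
      exact ⟨⟨x, a⟩, mem_center_iff.mpr fun q => Subtype.ext (b q q.2), rfl⟩
  have h : WR Q E _ s := ⟨hS, hEQ, E2, hE16, hQ32, hsQ, hsE, by rw [← pow_two, ← hs, pow_orderOf_eq_one], rfl, hfix, e ▸ hC⟩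
  exact red hS mw fun A nA a2 a8 => h.sr (h.le128 nA a2 a8)

end Cfsg.Agent.H10R
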